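import Mathlib
import Cfsg.Agent.Lib.Reg.Kreknin
import Cfsg.Agent.Lib.Reg.GrLie

/-!
# Higman's theorem on automorphisms of prime order (Topic Reg)

Lie ring form (by extension of scalars to the group ring of the cyclic group) and group form.
-/

set_option autoImplicit false

open scoped commutatorElement TensorProduct

namespace Cfsg.Agent.Reg

section Lie

variable {p : ℕ} [hp : Fact p.Prime]

/-- The basis elements of the group ring. -/
noncomputable def grpE (k : ZMod p) : AddMonoidAlgebra ℤ (ZMod p) := AddMonoidAlgebra.single k 1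

theorem grpE_add (a b : ZMod p) : grpE (a + b) = grpE a * grpE b := by
  simp [grpE, AddMonoidAlgebra.single_mul_single]

theorem grpE_zero : grpE (0 : ZMod p) = 1 := rfl

variable (p) in
/-- The norm element of the group ring. -/
noncomputable def grpN : AddMonoidAlgebra ℤ (ZMod p) := ∑ k, grpE k

theorem grpE_mul_grpN (a : ZMod p) : grpE a * grpN p = grpN p := by
  rw [grpN, Finset.mul_sum]
  exact Fintype.sum_equiv (Equiv.addLeft a) _ _ fun k => (grpE_add a k).symm

theorem grpN_mul_grpN : grpN p * grpN p = p * grpN p := by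
  nth_rewrite 1 [grpN]
  rw [Finset.sum_mul]
  simp [grpE_mul_grpN]

theorem grpW_pow (m : ℕ) : ((p : AddMonoidAlgebra ℤ (ZMod p)) - grpN p) ^ (m + 1) =
    p ^ m • ((p : AddMonoidAlgebra ℤ (ZMod p)) - grpN p) := by
  induction m with
  | zero => simp
  | succ m ih =>
    rw [pow_succ, ih, nsmul_eq_mul, nsmul_eq_mul]
    push_cast
    linear_combination (p : AddMonoidAlgebra ℤ (ZMod p)) ^ m * grpN_mul_grpN (p := p)

theorem sum_grpE (j : ZMod p) : ∑ i, grpE (-(i * j)) =
    (if j = 0 then (p : AddMonoidAlgebra ℤ (ZMod p)) - grpN p else 0) + grpN p := by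
  split_ifs with h
  · simp [h, grpE_zero]
  · rw [zero_add]
    exact Fintype.sum_equiv ((Equiv.mulRight₀ j h).trans (Equiv.neg _)) _ _ fun i => rfl

theorem coeff_grpW : ((p : AddMonoidAlgebra ℤ (ZMod p)) - grpN p).coeff 1 = -1 := by
  simp [grpN, grpE, AddMonoidAlgebra.natCast_def, AddMonoidAlgebra.coeff_sum,
    Finsupp.single_apply]

variable {L : Type*} [LieRing L]

/-- The formal eigencomponents. -/
noncomputable def eigP (ψ : ZMod p → L →+ L) (i : ZMod p) (x : L) :
    AddMonoidAlgebra ℤ (ZMod p) ⊗[ℤ] L := ∑ j, grpE (-(i * j)) ⊗ₜ ψ j x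

theorem lie_eigP {ψ : ZMod p → L →+ L} (hψ : ∀ a b x, ψ (a + b) x = ψ a (ψ b x))
    (hlie : ∀ a x y, ψ a ⁅x, y⁆ = ⁅ψ a x, ψ a y⁆) (i j : ZMod p) (x y : L) :
    ⁅eigP ψ i x, eigP ψ j y⁆ = ∑ c, grpE (-(j * c)) • eigP ψ (i + j) ⁅x, ψ c y⁆ := by
  simp only [eigP, sum_lie, Finset.smul_sum]
  simp only [lie_sum, LieAlgebra.ExtendScalars.bracket_tmul]
  refine Eq.trans ?_ Finset.sum_comm
  refine Finset.sum_congr rfl fun a _ => (Fintype.sum_equiv (Equiv.addLeft a) _ _ fun c => ?_).symm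
  rw [TensorProduct.smul_tmul', smul_eq_mul, ← grpE_add, ← grpE_add, hlie, ← hψ]
  congr 2
  simp only [Equiv.coe_addLeft]
  ring

theorem sum_eigP {ψ : ZMod p → L →+ L} (hψ0 : ∀ x, ψ 0 x = x) {x : L} (hx : ∑ a, ψ a x = 0) :
    ∑ i, eigP ψ i x = ((p : AddMonoidAlgebra ℤ (ZMod p)) - grpN p) ⊗ₜ x := by
  simp only [eigP]
  rw [Finset.sum_comm]
  simp only [← TensorProduct.sum_tmul, sum_grpE, TensorProduct.add_tmul, Finset.sum_add_distrib,
    ← TensorProduct.tmul_sum, hx, TensorProduct.tmul_zero, add_zero, TensorProduct.ite_tmul]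
  simp [hψ0]

theorem slcs_top_antitone : Antitone (slcs (⊤ : Submodule ℤ L)) := by
  refine antitone_nat_of_succ_le fun m => ?_
  induction m with
  | zero => exact le_top
  | succ m ih => exact lbr_mono ih le_rfl

/-- **Higman's theorem**, Lie ring form. -/
theorem higman_lie {ψ : ZMod p → L →+ L} (hψ0 : ∀ x, ψ 0 x = x)
    (hψ : ∀ a b x, ψ (a + b) x = ψ a (ψ b x)) (hlie : ∀ a x y, ψ a ⁅x, y⁆ = ⁅ψ a x, ψ a y⁆)
    (q : ℕ) (hq : ∀ x, q • ∑ a, ψ a x = 0) {x : L}
    (hx : x ∈ slcs (⊤ : Submodule ℤ L) (higmanBound p)) :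
    (p ^ higmanBound p * q ^ (higmanBound p + 1)) • x = 0 := by
  have hq' : ∀ x, ∑ a, ψ a (q • x) = 0 := fun x => by
    simpa only [map_nsmul, Finset.smul_sum] using hq x
  let V : ZMod p → Submodule (AddMonoidAlgebra ℤ (ZMod p)) (AddMonoidAlgebra ℤ (ZMod p) ⊗[ℤ] L) :=
    fun i => Submodule.span _ (Set.range fun x => eigP ψ i (q • x))
  have hV : fder V ≤ V := fcm_le.mpr fun i j => lbr_span_span_le (by
    rintro _ ⟨x, rfl⟩ _ ⟨y, rfl⟩
    rw [lie_eigP hψ hlie]
    refine Submodule.sum_mem _ fun c _ => Submodule.smul_mem _ _ (Submodule.subset_span ?_)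
    exact ⟨⁅x, ψ c (q • y)⁆, by simp only [nsmul_lie]⟩)
  have h0 : V 0 = ⊥ := by
    rw [Submodule.span_eq_bot]
    rintro _ ⟨x, rfl⟩
    simp only [eigP, zero_mul, ← TensorProduct.tmul_sum, hq', TensorProduct.tmul_zero]
  set w := (p : AddMonoidAlgebra ℤ (ZMod p)) - grpN p with hw
  have h1 : ∀ x, w ⊗ₜ (q • x) ∈ ⨆ i, V i := fun x => by
    rw [← sum_eigP hψ0 (hq' x)]
    exact Submodule.sum_mem _ fun i _ =>
      Submodule.mem_iSup_of_mem i (Submodule.subset_span ⟨x, rfl⟩)
  have h2 : ∀ m, slcs (⊤ : Submodule ℤ L) m ≤ AddSubgroup.toIntSubmodule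
      ((slcs (⨆ i, V i) m).toAddSubgroup.comap (AddMonoidHom.mk'
        (fun x => (w ^ (m + 1)) ⊗ₜ[ℤ] (q ^ (m + 1) • x))
        fun a b => by rw [smul_add, TensorProduct.tmul_add])) := by
    intro m
    induction m with
    | zero =>
      intro x _
      change (w ^ (0 + 1)) ⊗ₜ[ℤ] (q ^ (0 + 1) • x) ∈ ⨆ i, V i
      simpa using h1 x
    | succ m ih =>
      refine lbr_le.mpr fun a ha b _ => ?_
      have h3 : (w ^ (m + 1)) ⊗ₜ[ℤ] (q ^ (m + 1) • a) ∈ slcs (⨆ i, V i) m := ih ha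
      have := lie_mem_lbr h3 (h1 b)
      rw [LieAlgebra.ExtendScalars.bracket_tmul, nsmul_lie, lie_nsmul, smul_smul, ← pow_succ,
        ← pow_succ] at this
      exact this
  have h3 : (w ^ (higmanBound p + 1)) ⊗ₜ[ℤ] (q ^ (higmanBound p + 1) • x) ∈
    slcs (⨆ i, V i) (higmanBound p) := h2 _ hx
  rw [slcs_higmanBound hp.out hV h0, hw, grpW_pow, Submodule.mem_bot] at h3
  have h4 := congrArg (TensorProduct.lift (LinearMap.lsmul ℤ L ∘ₗ Finsupp.lapply 1 ∘ₗ
    (AddMonoidAlgebra.coeffLinearEquiv ℤ).toLinearMap)) h3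
  simp only [LinearMap.smul_apply, map_nsmul, TensorProduct.lift.tmul,
    map_zero, LinearMap.comp_apply, LinearEquiv.coe_coe, AddMonoidAlgebra.coeffLinearEquiv_apply,
    Finsupp.lapply_apply, coeff_grpW, LinearMap.lsmul_apply, neg_smul, one_smul, smul_neg,
    neg_eq_zero, smul_smul] at h4
  rwa [mul_comm]

end Lie

variable {G : Type*} [Group G]

/-- The homogeneous component as an additive subgroup. -/
def NSeries.comp (N : NSeries G) (n : ℕ) : AddSubgroup N.L where
  carrier := {y | ∃ h ∈ N.F n, y = N.ι n h}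
  zero_mem' := ⟨1, one_mem _, by simp⟩
  add_mem' := by
    rintro _ _ ⟨a, ha, rfl⟩ ⟨b, hb, rfl⟩
    exact ⟨a * b, mul_mem ha hb, (N.ι_mul ha hb).symm⟩
  neg_mem' := by
    rintro _ ⟨a, ha, rfl⟩
    exact ⟨a⁻¹, inv_mem ha, (N.ι_inv ha).symm⟩

theorem pow_apply_mem {α : MulAut G} {K : Subgroup G} (h : ∀ x ∈ K, α x ∈ K) (k : ℕ) :
    ∀ x ∈ K, (α ^ k) x ∈ K := by
  induction k with
  | zero => exact fun x hx => hx
  | succ k ih => exact fun x hx => by rw [pow_succ', MulAut.mul_apply]; exact h _ (ih x hx)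

theorem commutator_invariant {φ : G →* G} {H K : Subgroup G} (hH : ∀ x ∈ H, φ x ∈ H)
    (hK : ∀ x ∈ K, φ x ∈ K) : ∀ x ∈ ⁅H, K⁆, φ x ∈ ⁅H, K⁆ := by
  have : ⁅H, K⁆.map φ ≤ ⁅H, K⁆ := by
    rw [Subgroup.map_commutator]
    exact Subgroup.commutator_mono (Subgroup.map_le_iff_le_comap.mpr hH)
      (Subgroup.map_le_iff_le_comap.mpr hK)
  exact Subgroup.map_le_iff_le_comap.mp this

theorem lowerCentralSeries_invariant {φ : G →* G} {H : Subgroup G} (hH : ∀ x ∈ H, φ x ∈ H)
    (m : ℕ) : ∀ x ∈ H.lowerCentralSeries m, φ x ∈ H.lowerCentralSeries m := by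
  induction m with
  | zero => exact hH
  | succ m ih => exact commutator_invariant ih hH

theorem ι_mem_slcs (H : Subgroup G) (m : ℕ) : ∀ g ∈ H.lowerCentralSeries m,
    (lcsNSeries H).ι (m + 1) g ∈ slcs (⊤ : Submodule ℤ (lcsNSeries H).L) m := by
  induction m with
  | zero => exact fun _ _ => Submodule.mem_top
  | succ m ih =>
    let K : Subgroup G :=
      { carrier := {g | g ∈ H.lowerCentralSeries (m + 1) ∧
          (lcsNSeries H).ι (m + 1 + 1) g ∈ slcs (⊤ : Submodule ℤ (lcsNSeries H).L) (m + 1)}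
        one_mem' := ⟨one_mem _, by simp⟩
        mul_mem' := fun {a b} ha hb => ⟨mul_mem ha.1 hb.1, by
          rw [(lcsNSeries H).ι_mul (n := m + 1 + 1) ha.1 hb.1]; exact add_mem ha.2 hb.2⟩
        inv_mem' := fun {a} ha => ⟨inv_mem ha.1, by
          rw [(lcsNSeries H).ι_inv (n := m + 1 + 1) ha.1]; exact neg_mem ha.2⟩ }
    have : H.lowerCentralSeries (m + 1) ≤ K := Subgroup.commutator_le.mpr fun a ha b hb =>
      ⟨Subgroup.commutator_mem_commutator ha hb, by
        rw [← (lcsNSeries H).lie_ι (i := m + 1) (j := 1) ha hb]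
        exact lie_mem_lbr (ih a ha) Submodule.mem_top⟩
    exact fun g hg => (this hg).2

/-- **Higman's theorem**, group form: if the fixed points of `α` in the lower central factors of
`H` are killed by `q`, then the deep lower central factors have bounded exponent. -/
theorem higman_group {p : ℕ} [hp : Fact p.Prime] {α : MulAut G} (hα : α ^ p = 1) {H : Subgroup G}
    (hH : ∀ x ∈ H, α x ∈ H) (q : ℕ)
    (hq : ∀ m, ∀ h ∈ H.lowerCentralSeries m, h⁻¹ * α h ∈ H.lowerCentralSeries (m + 1) →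
      h ^ q ∈ H.lowerCentralSeries (m + 1)) {m : ℕ} (hm : higmanBound p ≤ m) {g : G}
    (hg : g ∈ H.lowerCentralSeries m) :
    g ^ (p ^ higmanBound p * q ^ (higmanBound p + 1)) ∈ H.lowerCentralSeries (m + 1) := by
  set N := lcsNSeries H
  have hinv : ∀ (k : ℕ) n, ∀ x ∈ N.F n, (α ^ k) x ∈ N.F n := fun k n =>
    lowerCentralSeries_invariant (φ := (α ^ k).toMonoidHom) (pow_apply_mem hH k) _
  let ψ : ZMod p → N.L →+ N.L := fun a => N.map (α ^ a.val).toMonoidHom (hinv _)
  have hψι : ∀ a n x, x ∈ N.F n → ψ a (N.ι n x) = N.ι n ((α ^ a.val) x) := fun a n x hx =>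
    N.map_ι _ _ hx
  have hψ : ∀ a b x, ψ (a + b) x = ψ a (ψ b x) := fun a b => by
    have : ψ (a + b) = (ψ a).comp (ψ b) := N.hom_ext fun n x hx => by
      rw [AddMonoidHom.comp_apply, hψι _ _ _ hx, hψι _ _ _ hx, hψι _ _ _ (hinv _ _ _ hx),
        ZMod.val_add, ← pow_eq_pow_mod _ hα, pow_add, MulAut.mul_apply]
    exact fun x => DFunLike.congr_fun this x
  have hψ0 : ∀ x, ψ 0 x = x := by
    have : ψ 0 = AddMonoidHom.id _ := N.hom_ext fun n x hx => by rw [hψι _ _ _ hx]; simp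
    exact fun x => DFunLike.congr_fun this x
  have key := higman_lie hψ0 hψ (fun a => N.map_lie _ _) q (fun x => ?_)
    (slcs_top_antitone hm (ι_mem_slcs H m g hg))
  · rw [← N.ι_pow (n := m + 1) hg, N.ι_eq_zero_iff (n := m + 1) (pow_mem hg _)] at key
    exact key
  induction x using N.induction_on with
  | h0 => simp
  | hadd x y hx hy => simp only [map_add, Finset.sum_add_distrib, smul_add, hx, hy, add_zero]
  | hι n x hx =>
    obtain ⟨h, hh, he⟩ : ∑ a, ψ a (N.ι n x) ∈ N.comp n :=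
      sum_mem fun a _ => ⟨_, hinv _ _ _ hx, hψι _ _ _ hx⟩
    have h1 : ψ 1 (N.ι n h) = N.ι n h := by
      rw [← he, map_sum]
      exact Fintype.sum_equiv (Equiv.addLeft 1) _ _ fun a => (hψ 1 a _).symm
    rw [hψι _ _ _ hh, ZMod.val_one, pow_one, eq_comm,
      N.ι_eq_iff hh (by simpa using hinv 1 _ _ hh)] at h1
    rw [he, ← N.ι_pow hh]
    refine N.ι_eq_zero ?_
    rcases n with _ | n
    · exact pow_mem hh q
    · exact hq n h hh h1

/-- Elements that are fixed modulo an invariant subgroup: counting. -/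
theorem card_le_card_mul_card_fixed [Finite G] (α : MulAut G) {S T : Set G}
    (h : ∀ x ∈ S, x⁻¹ * α x ∈ T) :
    S.ncard ≤ T.ncard * Nat.card {g : G // α g = g} := by
  classical
  have := Fintype.ofFinite G
  rw [Set.ncard_eq_toFinset_card', Set.ncard_eq_toFinset_card', mul_comm]
  refine Finset.card_le_mul_card_image_of_maps_to (f := fun x => x⁻¹ * α x)
    (fun x hx => by simpa using h x (by simpa using hx)) _ fun t _ => ?_
  rcases (S.toFinset.filter fun x => x⁻¹ * α x = t).eq_empty_or_nonempty with h1 | ⟨y, hy⟩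
  · simp [h1]
  · rw [Nat.card_eq_fintype_card, Fintype.card_subtype]
    refine Finset.card_le_card_of_injOn (fun x => x * y⁻¹) (fun x hx => ?_)
      (mul_left_injective _).injOn
    have h1 := (Finset.mem_filter.mp hx).2
    have h2 := (Finset.mem_filter.mp hy).2
    simp only [Finset.coe_filter, Finset.mem_univ, true_and, Set.mem_ofPred_eq, map_mul, map_inv]
    rw [inv_mul_eq_iff_eq_mul] at h1 h2
    rw [h1, h2]
    group

/-- The subgroup of elements fixed modulo `K`. -/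
def fixMod (α : MulAut G) (H K : Subgroup G)
    (hK : H ≤ Subgroup.normalizer (K : Set G)) : Subgroup G where
  carrier := {h | h ∈ H ∧ h⁻¹ * α h ∈ K}
  one_mem' := ⟨one_mem _, by simp⟩
  mul_mem' := fun {a b} ha hb => ⟨mul_mem ha.1 hb.1, by
    have : (a * b)⁻¹ * α (a * b) = (b⁻¹ * (a⁻¹ * α a) * b) * (b⁻¹ * α b) := by
      simp [mul_assoc]
    rw [this]
    exact mul_mem (conj_mem_of_mem_normalizer' (hK hb.1) ha.2) hb.2⟩
  inv_mem' := fun {a} ha => ⟨inv_mem ha.1, by
    have : a⁻¹⁻¹ * α a⁻¹ = a * (a⁻¹ * α a)⁻¹ * a⁻¹ := by simp [mul_assoc]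
    rw [this]
    exact conj_mem_of_mem_normalizer (hK ha.1) (inv_mem ha.2)⟩

/-- A fixed-point-free automorphism is fixed-point-free modulo invariant subgroups. -/
theorem mem_of_fixed_mod [Finite G] {α : MulAut G} {K : Subgroup G} (hK : ∀ x ∈ K, α x ∈ K)
    {h : G} (hf : ∀ g, g * h ∈ K → α g = g → g = 1) (hf' : ∀ g ∈ K, α g = g → g = 1)
    (hh : h⁻¹ * α h ∈ K) : h ∈ K := by
  let f : K → K := fun x => ⟨(x : G)⁻¹ * α x, mul_mem (inv_mem x.2) (hK _ x.2)⟩
  have key : ∀ a b : G, a⁻¹ * α a = b⁻¹ * α b → α (b * a⁻¹) = b * a⁻¹ := fun a b e => by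
    rw [map_mul, map_inv, inv_mul_eq_iff_eq_mul.mp e]; group
  have hinj : Function.Injective f := fun a b e => by
    have := hf' _ (mul_mem b.2 (inv_mem a.2)) (key a b (congrArg Subtype.val e))
    exact Subtype.ext (mul_inv_eq_one.mp this).symm
  obtain ⟨k, hk⟩ := Finite.surjective_of_injective hinj ⟨_, hh⟩
  have := hf _ (by simp) (key h k (congrArg Subtype.val hk).symm)
  rw [← mul_inv_eq_one.mp this]
  exact k.2

theorem card_modEq_card_fixed [Finite G] {p : ℕ} [hp : Fact p.Prime] {α : MulAut G}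
    (hα : α ^ p = 1) : Nat.card G ≡ Nat.card {g : G // α g = g} [MOD p] := by
  have h1 : IsPGroup p (Subgroup.zpowers α) := by
    rintro ⟨_, k, rfl⟩
    exact ⟨1, Subtype.ext (by
      simp only [pow_one, SubgroupClass.coe_pow, OneMemClass.coe_one]
      rw [← zpow_natCast, ← zpow_mul, mul_comm, zpow_mul, zpow_natCast, hα, one_zpow])⟩
  refine (h1.card_modEq_card_fixedPoints G).trans (by
    rw [Nat.card_congr (Equiv.subtypeEquivRight fun g => ?_)]
    refine ⟨fun h => h ⟨α, Subgroup.mem_zpowers α⟩, fun h a => ?_⟩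
    exact (Subgroup.zpowers_le (H := MulAction.stabilizer (MulAut G) g)).mpr h a.2)

/-- **Higman–Kreknin–Kostrikin** for a nilpotent invariant subgroup without fixed points. -/
theorem lowerCentralSeries_higmanBound_eq_bot [Finite G] {p : ℕ} [hp : Fact p.Prime]
    {α : MulAut G} (hα : α ^ p = 1) {H : Subgroup G} [Group.IsNilpotent H]
    (hH : ∀ x ∈ H, α x ∈ H) (hf : ∀ g ∈ H, α g = g → g = 1) (hcop : (Nat.card H).Coprime p) :
    H.lowerCentralSeries (higmanBound p) = ⊥ := by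
  have h1 : H.lowerCentralSeries (higmanBound p) ≤ H.lowerCentralSeries (higmanBound p + 1) := by
    intro g hg
    have h2 := higman_group hα hH 1 (fun m h hh hh' => ?_) le_rfl hg
    · rw [one_pow, mul_one] at h2
      have h3 : (p ^ higmanBound p).Coprime (orderOf g) := Nat.Coprime.pow_left _
        (Nat.Coprime.coprime_dvd_right (Subgroup.orderOf_dvd_natCard _
          (H.lowerCentralSeries_le_self _ hg)) hcop.symm)
      obtain ⟨k, hk⟩ := exists_pow_eq_self_of_coprime h3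
      rw [← hk]
      exact pow_mem h2 k
    · rw [pow_one]
      refine mem_of_fixed_mod (lowerCentralSeries_invariant (φ := α.toMonoidHom) hH _)
        (fun g hg => hf g ?_) (fun g hg => hf g (H.lowerCentralSeries_le_self _ hg)) hh'
      simpa using mul_mem (H.lowerCentralSeries_le_self _ hg)
        (inv_mem (H.lowerCentralSeries_le_self _ hh))
  exact eq_bot_iff.mpr (lowerCentralSeries_le_of_le_sup_succ (N := ⊥)
    (by rw [Subgroup.normalizer_eq_top]; exact le_top) (by simpa using h1))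

end Cfsg.Agent.Reg
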