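import Mathlib
import Cfsg.Agent.Lib.Reg.Higman
import Cfsg.Agent.Lib.Reg.IterComm
import Cfsg.Agent.Lib.PGrp.Aut

/-!
# Automorphisms of prime order with few fixed points (Topic Reg)

Alperin's bound on the derived length of a `p`-group with an automorphism of order `p`.
-/

set_option autoImplicit false

open scoped commutatorElement

namespace Cfsg.Agent.Reg

variable {G : Type*} [Group G]

theorem card_fixed_characteristic_le [Finite G] (H : Subgroup G) [H.Characteristic]
    (α : MulAut G) : Nat.card {g : H // MulAut.characteristic H α g = g} ≤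
      Nat.card {g : G // α g = g} :=
  Nat.card_le_card_of_injective (fun g => ⟨g.1, congrArg Subtype.val g.2⟩) fun _ _ h =>
    Subtype.ext (Subtype.ext (Subtype.mk.inj h))

theorem card_fixed_quotient_le [Finite G] (N : Subgroup G) [N.Normal] [N.Characteristic]
    (α : MulAut G) : Nat.card {g : G ⧸ N // PGrp.quotientAutHom N α g = g} ≤
      Nat.card {g : G // α g = g} := by
  have h1 := card_le_card_mul_card_fixed α
    (S := QuotientGroup.mk ⁻¹' {g : G ⧸ N | PGrp.quotientAutHom N α g = g}) (T := N)
    fun x hx => QuotientGroup.eq.mp (Eq.symm hx)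
  rw [← Nat.card_coe_set_eq, Nat.card_congr (QuotientGroup.preimageMkEquivSubgroupProdSet N _),
    Nat.card_prod] at h1
  exact Nat.le_of_mul_le_mul_left h1 Nat.card_pos

theorem derivedSeries_add_le {N : Subgroup G} {a : ℕ} (h : derivedSeries G a ≤ N) (b : ℕ) :
    derivedSeries G (a + b) ≤ (derivedSeries N b).map N.subtype := by
  induction b with
  | zero => simpa [← MonoidHom.range_eq_map] using h
  | succ b ih =>
    rw [← add_assoc, derivedSeries_succ, derivedSeries_succ, Subgroup.map_commutator]
    exact Subgroup.commutator_mono ih ih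

theorem derivedSeries_add_eq_bot {N : Subgroup G} [N.Normal] {a b : ℕ}
    (h : derivedSeries (G ⧸ N) a = ⊥) (h' : derivedSeries N b = ⊥) :
    derivedSeries G (a + b) = ⊥ := by
  have h1 : derivedSeries G a ≤ N := by
    have := map_derivedSeries_le_derivedSeries (QuotientGroup.mk' N) a
    rwa [h, le_bot_iff, Subgroup.map_eq_bot_iff, QuotientGroup.ker_mk'] at this
  simpa [h'] using derivedSeries_add_le h1 b

theorem derivedSeries_eq_bot_of_card_le [Finite G] [Group.IsSolvable G] {B : ℕ}
    (h : Nat.card G ≤ B) : derivedSeries G B = ⊥ := by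
  have key : ∀ k, derivedSeries G k = ⊥ ∨ Nat.card (derivedSeries G k) + k ≤ Nat.card G := by
    intro k
    induction k with
    | zero => right; simp
    | succ k ih =>
      by_cases h1 : derivedSeries G k = ⊥
      · left; simp [derivedSeries_succ, h1]
      · right
        have h2 : ⁅derivedSeries G k, derivedSeries G k⁆ < derivedSeries G k :=
          Group.IsSolvable.commutator_lt_of_ne_bot h1
        have h3 : Nat.card (derivedSeries G (k + 1)) < Nat.card (derivedSeries G k) :=
          Set.ncard_lt_ncard h2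
        have := ih.resolve_left h1
        omega
  refine (key B).resolve_right fun h1 => ?_
  have : 0 < Nat.card (derivedSeries G B) := Nat.card_pos
  omega

variable [Finite G] {p : ℕ} [hp : Fact p.Prime]

/-- An invariant abelian section of exponent `p ^ e` has order at most `|C(α)| ^ (p e)`. -/
theorem card_le_card_mul_card_fixed_pow {α : MulAut G} (hα : α ^ p = 1) {M K : Subgroup G}
    (hM : ∀ x ∈ M, α x ∈ M) (hK : ∀ x ∈ K, α x ∈ K) (hKM : K ≤ M) (hc : ⁅M, M⁆ ≤ K) {e : ℕ}
    (he : ∀ x ∈ M, x ^ p ^ e ∈ K) :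
    Nat.card M ≤ Nat.card K * Nat.card {g : G // α g = g} ^ (p * e) := by
  have h1 : ∀ n, K ≤ if n ≤ 1 then M else K := fun n => by split_ifs; exacts [hKM, le_rfl]
  have h2 : ∀ n, (if n ≤ 1 then M else K) ≤ M := fun n => by split_ifs; exacts [le_rfl, hKM]
  let N : NSeries G :=
    { F := fun n => if n ≤ 1 then M else K
      filt := ⟨fun a b hab => by
        by_cases hb : b ≤ 1
        · simp [hb, hab.trans hb]
        · simpa [hb] using h1 a,
        fun i j x hx y hy => h1 _ (hc (Subgroup.commutator_mem_commutator (h2 _ hx) (h2 _ hy)))⟩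
      zero_le := le_rfl }
  have hinv : ∀ n, ∀ x ∈ N.F n, α x ∈ N.F n := fun n => by
    simp only [N]; split_ifs; exacts [hM, hK]
  let f : Module.End ℤ N.L := (N.map α.toMonoidHom hinv).toIntLinearMap
  have hf : ∀ n, ∀ x ∈ N.F n, f (N.ι n x) = N.ι n (α x) := fun n x hx =>
    N.map_ι α.toMonoidHom hinv hx
  have hfk : ∀ k n, ∀ x ∈ N.F n, (f ^ k) (N.ι n x) = N.ι n ((α ^ k) x) := by
    intro k n x hx
    induction k with
    | zero => simp
    | succ k ih =>
      rw [pow_succ', Module.End.mul_apply, ih, hf _ _ (pow_apply_mem (hinv n) k x hx), pow_succ',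
        MulAut.mul_apply]
  have hfp : f ^ p = 1 := by
    have : (f ^ p).toAddMonoidHom = AddMonoidHom.id _ := N.hom_ext fun n x hx => by
      simpa [hα] using hfk p n x hx
    exact LinearMap.ext fun x => DFunLike.congr_fun this x
  obtain ⟨r, hr⟩ := (Commute.one_right (f - 1)).exists_add_pow_prime_eq hp.out
  rw [sub_add_cancel, hfp, one_pow] at hr
  have hT : (f - 1) ^ p = (-((f - 1) * r)) * p := by
    rw [neg_mul, ← (Nat.cast_commute p _).eq, eq_neg_iff_add_eq_zero, ← add_left_inj 1, zero_add]
    refine Eq.trans ?_ hr.symm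
    simp only [mul_one, mul_assoc]
    abel
  have key : ∀ k, {h | h ∈ M ∧ ((f - 1) ^ k) (N.ι 1 h) = 0}.ncard ≤
      Nat.card K * Nat.card {g : G // α g = g} ^ k := by
    intro k
    induction k with
    | zero =>
      rw [pow_zero, pow_zero, mul_one]
      exact Set.ncard_le_ncard fun h hh => (N.ι_eq_zero_iff (n := 1) hh.1).mp hh.2
    | succ k ih =>
      rw [pow_succ, pow_succ, ← mul_assoc]
      refine (card_le_card_mul_card_fixed α fun x hx => ?_).trans (Nat.mul_le_mul_right _ ih)
      refine ⟨mul_mem (inv_mem hx.1) (hM _ hx.1), ?_⟩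
      rw [N.ι_mul (n := 1) (inv_mem hx.1) (hM _ hx.1), N.ι_inv (n := 1) hx.1,
        ← hf 1 x hx.1, neg_add_eq_sub]
      exact hx.2
  refine le_trans ?_ (key (p * e))
  refine Set.ncard_le_ncard (s := (M : Set G)) fun h hh => ?_
  refine ⟨hh, ?_⟩
  rw [pow_mul, hT, (Nat.commute_cast _ p).mul_pow, Module.End.mul_apply, ← Nat.cast_pow,
    Module.End.natCast_apply, ← N.ι_pow (n := 1) hh, N.ι_eq_zero (n := 1) (he h hh), map_zero]

/-- **Alperin's theorem** for `p`-groups. -/
theorem exists_derivedSeries_eq_bot_of_isPGroup (p n : ℕ) [hp : Fact p.Prime] :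
    ∃ l : ℕ, ∀ (G : Type) [Group G] [Finite G], IsPGroup p G → ∀ α : MulAut G, α ^ p = 1 →
      Nat.card {g : G // α g = g} ≤ p ^ n → derivedSeries G l = ⊥ := by
  set c := higmanBound p
  set B := n * (p * (c + n * (c + 1)))
  refine ⟨B + (c + 1), fun G _ _ hG α hα hn => ?_⟩
  have := hG.isNilpotent
  set H := derivedSeries G B
  have hH : ∀ x ∈ H, α x ∈ H := fun x hx =>
    (Subgroup.characteristic_iff_le_comap.mp inferInstance α) hx
  have hinv := fun m => lowerCentralSeries_invariant (φ := α.toMonoidHom) hH m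
  have hle : ∀ m, H.lowerCentralSeries (m + 1) ≤ H.lowerCentralSeries m := fun m =>
    H.lowerCentralSeries_antitone m.le_succ
  have h1 : ∀ g ∈ H.lowerCentralSeries c,
      g ^ p ^ (c + n * (c + 1)) ∈ H.lowerCentralSeries (c + 1) := fun g hg => by
    rw [pow_add, pow_mul p]
    refine higman_group hα hH (p ^ n) (fun m h hh hh' => ?_) le_rfl hg
    set K := H.lowerCentralSeries (m + 1)
    let D := fixMod α (H.lowerCentralSeries m) K (by rw [Subgroup.normalizer_eq_top]; exact le_top)
    have hKD : K ≤ D := fun x hx => ⟨hle m hx, mul_mem (inv_mem hx) (hinv _ _ hx)⟩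
    have h2 : Nat.card D ≤ Nat.card K * p ^ n :=
      (card_le_card_mul_card_fixed α (S := D) (T := K) fun x hx => hx.2).trans
        (Nat.mul_le_mul_left _ hn)
    obtain ⟨j, hj⟩ := (hG.to_subgroup D).index (K.subgroupOf D)
    have h3 := (K.subgroupOf D).card_mul_index
    rw [Nat.card_congr (Subgroup.subgroupOfEquivOfLe hKD).toEquiv, hj] at h3
    rw [← h3] at h2
    have h4 := (Nat.pow_le_pow_iff_right hp.out.one_lt).mp
      (Nat.le_of_mul_le_mul_left h2 Nat.card_pos)
    have h5 := (K.subgroupOf D).pow_index_mem ⟨h, hh, hh'⟩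
    rw [hj, Subgroup.mem_subgroupOf] at h5
    obtain ⟨i, rfl⟩ := Nat.exists_eq_add_of_le h4
    rw [pow_add, pow_mul]
    exact pow_mem h5 _
  have h2 := (card_le_card_mul_card_fixed_pow hα (hinv c) (hinv (c + 1)) (hle c)
    (Subgroup.commutator_mono le_rfl (H.lowerCentralSeries_le_self c)) h1).trans
      (Nat.mul_le_mul_left _ (Nat.pow_le_pow_left hn _))
  rw [← pow_mul] at h2
  have h3 : Cfsg.iterCommutator (H.lowerCentralSeries c) ⊤ B ≤ H.lowerCentralSeries (c + 1) := by
    by_contra h3
    have h4 := (card_mul_pow_le_of_iterCommutator_not_le hG _ B _ (hle c) h3).trans h2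
    have h5 := (Nat.pow_le_pow_iff_right hp.out.one_lt).mp
      (Nat.le_of_mul_le_mul_left h4 Nat.card_pos)
    omega
  have h4 : H.lowerCentralSeries (c + 1) ≤
      Cfsg.iterCommutator (H.lowerCentralSeries c) ⊤ (B + 1) :=
    (Subgroup.commutator_mono le_rfl (Subgroup.derived_le_lower_central B)).trans
      (commutator_lowerCentralSeries_le_iterCommutator _ ⊤ B)
  have h5 : Cfsg.iterCommutator (H.lowerCentralSeries c) ⊤ B ≤ ⊥ :=
    le_of_le_commutator_top_sup (le_sup_of_le_left (h3.trans h4))
  have h6 : H.lowerCentralSeries (c + 1) ≤ ⊥ :=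
    h4.trans ((iterCommutator_antitone _ ⊤ B.le_succ).trans h5)
  have h7 : ∀ j, derivedSeries G (B + j) ≤ H.lowerCentralSeries j := by
    intro j
    induction j with
    | zero => exact le_rfl
    | succ j ih => exact Subgroup.commutator_mono ih (ih.trans (H.lowerCentralSeries_le_self j))
  exact eq_bot_iff.mpr ((h7 _).trans h6)

end Cfsg.Agent.Reg
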