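import Cfsg.Agent.Lib.PGrp.Omega
import Cfsg.Agent.Lib.PGrp.Frattini
import Cfsg.Agent.Lib.Reg.Commutator

/-!
Breadth and the order of the commutator subgroup of a finite `p`-group (Vaughan-Lee's theorem, in
the strengthened form conjectured by Wiegold).
-/

namespace Cfsg.Agent.Reg

open Subgroup
open scoped commutatorElement

universe u

variable {G : Type*} [Group G]

/-- The size of the conjugacy class of `x`. -/
noncomputable abbrev br (x : G) : ℕ := (centralizer ({x} : Set G)).index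

theorem centralizer_coe (H : Subgroup G) (h : H) :
    centralizer ({h} : Set H) = (centralizer ({(h : G)} : Set G)).subgroupOf H := by
  ext k
  rw [mem_subgroupOf, mem_centralizer_singleton_iff, mem_centralizer_singleton_iff,
    Subtype.ext_iff]
  rfl

theorem exists_not_mem_not_mem {M A B : Subgroup G} (hA : ¬ M ≤ A) (hB : ¬ M ≤ B) :
    ∃ x ∈ M, x ∉ A ∧ x ∉ B := by
  obtain ⟨a, ha, haA⟩ := SetLike.not_le_iff_exists.1 hA
  obtain ⟨b, hb, hbB⟩ := SetLike.not_le_iff_exists.1 hB
  by_cases h1 : a ∈ B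
  · by_cases h2 : b ∈ A
    · exact ⟨a * b, M.mul_mem ha hb, fun h => haA ((A.mul_mem_cancel_right h2).1 h),
        fun h => hbB ((B.mul_mem_cancel_left h1).1 h)⟩
    · exact ⟨b, hb, h2, hbB⟩
  · exact ⟨a, ha, haA, h1⟩

variable [Finite G] {p : ℕ} [hp : Fact p.Prime]

theorem not_br_lt_pow_zero (x : G) (q : ℕ) : ¬ br x < q ^ 0 := by
  rw [pow_zero, Nat.lt_one_iff]
  exact index_ne_zero_of_finite

theorem br_coe_le (H : Subgroup G) (h : H) : br h ≤ br (h : G) := by
  rw [br, centralizer_coe]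
  exact (relIndex_le_of_le_right le_top (by rw [relIndex_top_right]; exact index_ne_zero_of_finite)
    ).trans_eq (relIndex_top_right _)

omit [Finite G] hp in
theorem relIndex_eq_of_index_eq [Fact p.Prime] {M N : Subgroup G} [N.Normal] (hN : N.index = p)
    (h : ¬ M ≤ N) : N.relIndex M = p := by
  rw [← relIndex_sup_right, (PGrp.isCoatom_of_index_eq hN).2 _ (right_lt_sup.2 h),
    relIndex_top_right, hN]

theorem exists_third (hG : IsPGroup p G) {M N : Subgroup G} (hM : M.index = p) (hN : N.index = p)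
    (h : M ≠ N) : ∃ H : Subgroup G, H.index = p ∧ H ⊓ M ≤ N ∧ H ⊓ N ≤ M ∧ ¬ H ≤ N := by
  have := PGrp.normal_of_index_eq hG hM
  have := PGrp.normal_of_index_eq hG hN
  have cM := PGrp.isCoatom_of_index_eq hM
  have cN := PGrp.isCoatom_of_index_eq hN
  have h1 : ¬ M ≤ N := fun e => h (cM.le_iff_eq cN.1 |>.1 e).symm
  have h2 : ¬ N ≤ M := fun e => h (cN.le_iff_eq cM.1 |>.1 e)
  obtain ⟨x, hx, hxN⟩ := SetLike.not_le_iff_exists.1 h1
  obtain ⟨y, hy, hyM⟩ := SetLike.not_le_iff_exists.1 h2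
  have h3 : x * y ∉ M := fun e => hyM ((M.mul_mem_cancel_left hx).1 e)
  have h4 : x * y ∉ N := fun e => hxN ((N.mul_mem_cancel_right hy).1 e)
  have h5 : (M ⊓ N) ⊔ zpowers (x * y) ≠ ⊤ := by
    intro e
    have h6 := PGrp.card_sup_zpowers (p := p) (H := M ⊓ N) (y := x * y)
      (by rw [normalizer_eq_top]; trivial) (fun e => h3 e.1)
      ⟨PGrp.pow_mem_of_index_eq hM _, PGrp.pow_mem_of_index_eq hN _⟩
    have h7 := PGrp.card_inf_mul_relIndex N M
    rw [relIndex_eq_of_index_eq hN h1, inf_comm, ← h6, e, card_top] at h7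
    exact cM.1 (eq_top_of_card_eq _ h7.symm)
  obtain ⟨H, hH, hi, -⟩ := PGrp.exists_le_index_eq hG h5
  have hxy : x * y ∈ H := hH (mem_sup_right (mem_zpowers _))
  have key : ∀ {M N : Subgroup G} [N.Normal], M.index = p → N.index = p → ¬ M ≤ N → M ⊓ N ≤ H →
      x * y ∉ M → H ⊓ M ≤ N := by
    intro M N _ hM hN h1 h2 h3 g hg
    have c := PGrp.isCoatom_of_index_eq (relIndex_eq_of_index_eq hN h1)
    have h4 : N.subgroupOf M = H.subgroupOf M := by
      refine ((c.le_iff_eq fun e => h3 ?_).1 fun k hk => h2 ⟨k.2, hk⟩).symm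
      rw [← ((PGrp.isCoatom_of_index_eq hM).le_iff_eq (PGrp.isCoatom_of_index_eq hi).1).1
        (subgroupOf_eq_top.1 e)]
      exact hxy
    have : (⟨g, hg.2⟩ : M) ∈ H.subgroupOf M := hg.1
    rwa [← h4] at this
  exact ⟨H, hi, key hM hN h1 (le_sup_left.trans hH) h3,
    key hN hM h2 (inf_comm M N ▸ le_sup_left.trans hH) h4, fun e => h4 (e hxy)⟩

/-- Comparison of the commutator subgroups of `G` and of a maximal subgroup. -/
theorem exists_card_commutator_eq (hG : IsPGroup p G) {H : Subgroup G} (hH : H.index = p) {a : G}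
    (ha : a ∉ H) : ∃ Z : Subgroup H, Nat.card (commutator G) = Z.index * Nat.card (commutator H) ∧
      Z.index ≤ br a ∧ ∀ h : H, h ∉ Z → p * br h = br (h : G) := by
  have := PGrp.normal_of_index_eq hG hH
  let π := QuotientGroup.mk' ⁅H, H⁆
  have hmem : ∀ k ∈ H, ⁅a, k⁆ ∈ H := fun k hk =>
    commutator_le_right ⊤ H (commutator_mem_commutator (mem_top a) hk)
  have hπ : ∀ h ∈ H, ∀ k ∈ H, π h * π k = π k * π h := fun h hh k hk => by
    rw [← commutatorElement_eq_one_iff_mul_comm, ← map_commutatorElement]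
    exact (QuotientGroup.eq_one_iff _).2 (commutator_mem_commutator hh hk)
  let φ : H →* G ⧸ ⁅H, H⁆ := MonoidHom.mk' (fun h => π ⁅a, (h : G)⁆) fun h k => by
    have : ⁅a, ((h * k : H) : G)⁆ = ⁅a, (h : G)⁆ * (h * ⁅a, (k : G)⁆ * (h : G)⁻¹) := by
      simp only [commutatorElement_def, coe_mul]; group
    simp only [this, map_mul, map_inv]
    rw [hπ _ h.2 _ (hmem _ k.2), mul_inv_cancel_right]
  have htop : H ⊔ zpowers a = ⊤ :=
    (PGrp.isCoatom_of_index_eq hH).2 _ (left_lt_sup.2 fun e => ha (e (mem_zpowers a)))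
  have hR : φ.range.comap π = commutator G := by
    apply le_antisymm
    · rintro g ⟨h, hg⟩
      have h1 : ⁅a, (h : G)⁆⁻¹ * g ∈ ⁅H, H⁆ := QuotientGroup.eq.1 hg
      have := mul_mem (commutator_mem_commutator (mem_top a) (mem_top (h : G)))
        (commutator_mono le_top le_top h1)
      rwa [mul_inv_cancel_left] at this
    · have hN : ⁅H, H⁆ ≤ φ.range.comap π := fun g hg => by
        rw [mem_comap, show π g = 1 from (QuotientGroup.eq_one_iff _).2 hg]
        exact one_mem _
      have hn : ⊤ ≤ normalizer (φ.range.comap π : Set G) := by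
        rw [← htop]
        refine sup_le (fun h hh => ?_) (zpowers_le.2 ?_) <;>
          refine mem_normalizer_fintype ?_
        · rintro g ⟨k, hk⟩
          refine ⟨k, ?_⟩
          rw [map_mul, map_mul, map_inv, ← hk]
          change π _ = π h * π _ * _
          rw [hπ _ hh _ (hmem _ k.2), mul_inv_cancel_right]
        · rintro g ⟨k, hk⟩
          refine ⟨⟨a * k * a⁻¹, Normal.conj_mem inferInstance _ k.2 a⟩, ?_⟩
          rw [map_mul, map_mul, ← hk]
          change π _ = π a * π _ * _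
          rw [← map_mul, ← map_mul]
          congr 1
          simp only [commutatorElement_def]; group
      have h1 : ⁅zpowers a, H⁆ ≤ φ.range.comap π := by
        rw [zpowers_eq_closure]
        exact commutator_closure_left_le (fun s _ => hn trivial) (by
          rintro _ rfl t ht
          exact ⟨⟨t, ht⟩, rfl⟩)
      have h2 : ⁅zpowers a, zpowers a⁆ ≤ φ.range.comap π :=
        (commutator_eq_bot_iff_le_centralizer.2 (le_centralizer _)).le.trans bot_le
      have h3 : ⁅H, zpowers a⁆ ≤ φ.range.comap π := by rwa [commutator_comm]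
      generalize φ.range.comap π = R at *
      rw [_root_.commutator_def, ← htop]
      exact commutator_sup_left_le (le_top.trans hn) (le_top.trans hn)
        (commutator_sup_right_le (le_top.trans hn) (le_top.trans hn) hN h3)
        (commutator_sup_right_le (le_top.trans hn) (le_top.trans hn) h1 h2)
  refine ⟨φ.ker, ?_, ?_, fun h hh => ?_⟩
  · rw [← hR, PGrp.card_comap_mk', index_ker,
      ← card_map_of_injective (K := commutator H) H.subtype_injective, map_subtype_commutator]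
  · refine le_trans (index_antitone (H := (centralizer {a}).subgroupOf H) fun h hh => ?_) ?_
    · change π _ = 1
      rw [commutatorElement_eq_one_iff_mul_comm.2
        (mem_centralizer_singleton_iff.1 (mem_subgroupOf.1 hh)).symm, map_one]
    · exact (relIndex_le_of_le_right le_top
        (by rw [relIndex_top_right]; exact index_ne_zero_of_finite)).trans_eq (relIndex_top_right _)
  · have h1 : centralizer {(h : G)} ≤ H := by
      by_contra h2
      apply hh
      have h3 : (⊤ : Subgroup G) ≤ (centralizer {π h}).comap π := by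
        rw [← (PGrp.isCoatom_of_index_eq hH).2 _ (left_lt_sup.2 h2)]
        refine sup_le (fun k hk => mem_centralizer_singleton_iff.2 (hπ _ hk _ h.2)) fun k hk => ?_
        rw [mem_comap, mem_centralizer_singleton_iff, ← map_mul, ← map_mul,
          mem_centralizer_singleton_iff.1 hk]
      change π _ = 1
      rw [map_commutatorElement, commutatorElement_eq_one_iff_mul_comm]
      exact mem_centralizer_singleton_iff.1 (h3 (mem_top a))
    rw [br, br, centralizer_coe, ← relIndex_mul_index h1, hH, mul_comm]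
    rfl

/-- If the elements of breadth at least `n` lie in the union of a proper subgroup and a subgroup
of index at least `p ^ 2`, then the commutator subgroup has order at most `p ^ (n (n - 1) / 2)`. -/
def Wie (p : ℕ) (G : Type*) [Group G] : Prop := ∀ (n : ℕ) (A K : Subgroup G), A ≠ ⊤ → (K ≤ A ∨ p ^ 2 ≤ K.index) →
  (∀ x, x ∉ A → x ∉ K → br x < p ^ n) → Nat.card (commutator G) ≤ p ^ n.choose 2

theorem br_le_of_lt (hG : IsPGroup p G) {x : G} {m : ℕ} (h : br x < p ^ (m + 1)) :
    br x ≤ p ^ m := by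
  obtain ⟨k, hk⟩ := hG.index (centralizer {x})
  rw [br, hk] at h ⊢
  rw [Nat.pow_lt_pow_iff_right hp.out.one_lt] at h
  exact Nat.pow_le_pow_right hp.out.pos (by omega)

theorem wie_aux (hG : IsPGroup p G) (ih : ∀ L : Subgroup G, L ≠ ⊤ → Wie p L) {A Z : Subgroup G}
    (hA : A.index = p) (hZ : Z.index = p) (hZA : ¬ Z ≤ A) {m : ℕ}
    (h1 : ∀ x, x ∉ A → br x ≤ p ^ m) (h2 : ∀ x, x ∉ A → x ∉ Z → br x < p ^ m) :
    p * Nat.card (commutator G) ≤ p ^ (m + 1).choose 2 := by
  have hp1 := hp.out.one_lt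
  obtain ⟨L, hL, hLZ, -, hLA⟩ := exists_third hG hZ hA fun e => hZA e.le
  obtain ⟨a, haZ, haA⟩ := SetLike.not_le_iff_exists.1 hZA
  obtain ⟨Y, hc, hY, hbr⟩ := exists_card_commutator_eq hG hL (a := a) fun e => haA (hLZ ⟨e, haZ⟩)
  have hL' := ih L (PGrp.isCoatom_of_index_eq hL).1
  have hAL : A.subgroupOf L ≠ ⊤ := fun e => hLA (subgroupOf_eq_top.1 e)
  have h3 : ∀ l : L, l ∉ A.subgroupOf L → br (l : G) < p ^ m := fun l hl =>
    h2 l hl fun e => hl (hLZ ⟨l.2, e⟩)
  obtain ⟨l, hl, hlA⟩ := SetLike.not_le_iff_exists.1 hLA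
  obtain ⟨k, rfl⟩ : ∃ k, m = k + 1 := by
    refine Nat.exists_eq_succ_of_ne_zero ?_
    rintro rfl
    exact not_br_lt_pow_zero _ _ (h3 ⟨l, hl⟩ hlA)
  obtain ⟨j, hj⟩ := (hG.to_subgroup L).index Y
  have hjm : j ≤ k + 1 := (Nat.pow_le_pow_iff_right hp1).1 (hj ▸ hY.trans (h1 a haA))
  have e1 : (k + 1 + 1).choose 2 = (k + 1).choose 2 + (k + 1) := by
    rw [Nat.choose_succ_succ' (k + 1) 1, Nat.choose_one_right, add_comm]
  have e2 : (k + 1).choose 2 = k.choose 2 + k := by
    rw [Nat.choose_succ_succ' k 1, Nat.choose_one_right, add_comm]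
  rw [hc, hj]
  rcases hjm.lt_or_eq with hlt | rfl
  · have h4 := hL' (k + 1) _ ⊥ hAL (Or.inl bot_le) fun x hx _ => (br_coe_le L x).trans_lt (h3 x hx)
    calc _ ≤ p * (p ^ k * p ^ (k + 1).choose 2) :=
          Nat.mul_le_mul_left _ (Nat.mul_le_mul (Nat.pow_le_pow_right hp.out.pos (by omega)) h4)
      _ = _ := by rw [e1]; ring
  · have h4 : ∀ x : L, x ∉ A.subgroupOf L → x ∉ Y → br x < p ^ k := fun x hx hx' => by
      have := h3 x hx
      rw [← hbr x hx', pow_succ'] at this
      exact Nat.lt_of_mul_lt_mul_left this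
    have hk : 1 ≤ k := by
      obtain ⟨x, -, hx, hx'⟩ := exists_not_mem_not_mem (M := ⊤) (A := A.subgroupOf L) (B := Y)
        (fun e => hAL (top_le_iff.1 e)) fun e => by
          rw [top_le_iff.1 e, index_top] at hj
          exact (Nat.one_lt_pow (by omega) hp1).ne hj
      by_contra h
      obtain rfl : k = 0 := by omega
      exact not_br_lt_pow_zero _ _ (h4 x hx hx')
    have h5 := hL' k _ Y hAL (Or.inr (hj ▸ Nat.pow_le_pow_right hp.out.pos (by omega))) h4
    calc _ ≤ p * (p ^ (k + 1) * p ^ k.choose 2) :=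
          Nat.mul_le_mul_left _ (Nat.mul_le_mul_left _ h5)
      _ = p ^ (k.choose 2 + k + 2) := by ring
      _ ≤ _ := Nat.pow_le_pow_right hp.out.pos (by omega)

theorem wie (G : Type u) [Group G] [Finite G] : IsPGroup p G → Wie p G := by
  refine Core.induction_on_card (P := fun G _ _ => IsPGroup p G → Wie p G) ?_ G
  intro G _ _ ih hG n A₀ K hA₀ hK hbr
  have hp1 := hp.out.one_lt
  have hlt : ∀ H : Subgroup G, H ≠ ⊤ → Nat.card H < Nat.card G := fun H hH => by
    rw [← card_top (G := G)]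
    exact PGrp.card_lt_of_lt (lt_top_iff_ne_top.2 hH)
  obtain ⟨A, hA₀A, hA, hAn⟩ := PGrp.exists_le_index_eq hG hA₀
  replace hbr : ∀ x, x ∉ A → x ∉ K → br x < p ^ n := fun x hx => hbr x fun e => hx (hA₀A e)
  by_cases hcyc : IsCyclic G
  · rw [(commutator_eq_bot_iff G).2 inferInstance, card_bot]
    exact Nat.one_le_pow _ _ hp.out.pos
  obtain ⟨M, hM, hMA, hMK⟩ : ∃ M : Subgroup G, M.index = p ∧ ¬ M ≤ A ∧ (K ≤ A ∨ K < M) := by
    by_cases hKA : K ≤ A
    · obtain ⟨x, -, hx⟩ := SetLike.exists_of_lt (PGrp.isCoatom_of_index_eq hA).lt_top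
      obtain ⟨M, h1, h2, -⟩ := PGrp.exists_le_index_eq hG (H := zpowers x) fun e =>
        hcyc (_root_.isCyclic_iff_exists_zpowers_eq_top.2 ⟨x, e⟩)
      exact ⟨M, h2, fun e => hx (e (h1 (mem_zpowers x))), Or.inl hKA⟩
    · have h1 := hK.resolve_left fun e => hKA (e.trans hA₀A)
      obtain ⟨M, h2, h3, -⟩ := PGrp.exists_le_index_eq hG (H := K) fun e => by
        rw [e, index_top] at h1
        nlinarith
      refine ⟨M, h3, fun e => hKA (h2.trans e), Or.inr (lt_of_le_of_ne h2 fun e => ?_)⟩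
      rw [e, h3] at h1
      nlinarith
  obtain ⟨H, hH, hHM, -, hHA⟩ := exists_third hG hM hA fun e => hMA e.le
  have hHK : H ⊓ K ≤ A := by
    rcases hMK with h | h
    · exact inf_le_right.trans h
    · exact (inf_le_inf_left H h.le).trans hHM
  obtain ⟨a, haM, haA, haK⟩ : ∃ a ∈ M, a ∉ A ∧ a ∉ K := by
    rcases hMK with h | h
    · obtain ⟨a, h1, h2⟩ := SetLike.not_le_iff_exists.1 hMA
      exact ⟨a, h1, h2, fun e => h2 (h e)⟩
    · exact exists_not_mem_not_mem hMA h.not_ge
  obtain ⟨Z, hc, hZ, hZbr⟩ := exists_card_commutator_eq hG hH (a := a) fun e => haA (hHM ⟨e, haM⟩)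
  have hHt := (PGrp.isCoatom_of_index_eq hH).1
  have hH' := ih H (hlt H hHt) (hG.to_subgroup H)
  have hAH : A.subgroupOf H ≠ ⊤ := fun e => hHA (subgroupOf_eq_top.1 e)
  have h3 : ∀ h : H, h ∉ A.subgroupOf H → br (h : G) < p ^ n := fun h hh =>
    hbr h hh fun e => hh (hHK ⟨h.2, e⟩)
  obtain ⟨m, rfl⟩ : ∃ m, n = m + 1 := by
    refine Nat.exists_eq_succ_of_ne_zero ?_
    rintro rfl
    exact not_br_lt_pow_zero _ _ (hbr a haA haK)
  have h4 : ∀ x : H, x ∉ A.subgroupOf H → x ∉ Z → br x < p ^ m := fun x hx hx' => by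
    have := h3 x hx
    rw [← hZbr x hx', pow_succ'] at this
    exact Nat.lt_of_mul_lt_mul_left this
  rw [hc]
  by_cases hcase : Z ≤ A.subgroupOf H ∨ p ^ 2 ≤ Z.index
  · have h5 := hH' m _ Z hAH hcase h4
    calc _ ≤ p ^ m * p ^ m.choose 2 := Nat.mul_le_mul (hZ.trans (br_le_of_lt hG (hbr a haA haK))) h5
      _ = _ := by rw [Nat.choose_succ_succ' m 1, Nat.choose_one_right, pow_add]
  rw [not_or, not_le (b := Z.index)] at hcase
  obtain ⟨j, hj⟩ := (hG.to_subgroup H).index Z
  have hj2 : j < 2 := (Nat.pow_lt_pow_iff_right hp1).1 (hj ▸ hcase.2)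
  interval_cases j
  · rw [hj, pow_zero, one_mul]
    exact hH' (m + 1) _ ⊥ hAH (Or.inl bot_le) fun x hx _ => (br_coe_le H x).trans_lt (h3 x hx)
  · rw [pow_one] at hj
    rw [hj]
    refine wie_aux (hG.to_subgroup H) (fun L hL => ih L ?_ ((hG.to_subgroup H).to_subgroup L))
      (relIndex_eq_of_index_eq hA hHA) hj hcase.1
      (fun x hx => (br_coe_le H x).trans (br_le_of_lt hG (h3 x hx))) h4
    exact (card_le_card_group L).trans_lt (hlt H hHt)

/-- Vaughan-Lee's theorem. -/
theorem card_commutator_le_of_br_le (hG : IsPGroup p G) {b : ℕ} (hb : ∀ x : G, br x ≤ p ^ b) :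
    Nat.card (commutator G) ≤ p ^ (b + 1).choose 2 := by
  rcases subsingleton_or_nontrivial G with h | h
  · rw [Subsingleton.elim (commutator G) ⊥, card_bot]
    exact Nat.one_le_pow _ _ hp.out.pos
  · exact wie G hG (b + 1) ⊥ ⊥ bot_ne_top (Or.inl le_rfl) fun x _ _ =>
      (hb x).trans_lt (Nat.pow_lt_pow_right hp.out.one_lt b.lt_succ_self)

end Cfsg.Agent.Reg
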